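import Cfsg.Agent.Lib.TC.Enc

namespace Cfsg.Agent.Lib.CosetCert.D.OnM11.Lv2.CT

open Cfsg.Agent.Lib.TC.Enc

set_option maxRecDepth 100000

/-- The chunks of the certificate. -/
noncomputable def tree : Tr Nat :=
  (Tr.leaf (nat_lit 0xa23559a08c3b7020d204082210))

end Cfsg.Agent.Lib.CosetCert.D.OnM11.Lv2.CT
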