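import Cfsg.Agent.Lib.CosetCert.D.OnM11.Tbl
import Cfsg.Agent.Lib.CosetCert.D.OnM11.Lv2.CT

namespace Cfsg.Agent.Lib.CosetCert.D.OnM11.Lv2.Tab

open Cfsg.Agent.Lib.CosetCert Cfsg.Agent.Lib.TC.Core Cfsg.Agent.Lib.TC.Enc Cfsg.Agent.Lib.TC.Pres Cfsg.Agent.Lib.TC.Perm Cfsg.Agent.Lib.TC.Main

set_option maxRecDepth 100000

open Cfsg.Agent.Lib.CosetCert.D.OnM11.Tbl

/-- The chunks. -/
noncomputable def ctree : Tr Nat := Cfsg.Agent.Lib.CosetCert.D.OnM11.Lv2.CT.tree

/-- The relator rotations. -/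
noncomputable def rotT : Tr (List Nat) := (Tr.node (Tr.node (Tr.leaf []) (Tr.leaf [0,0])) (Tr.node (Tr.leaf [0,1,0,1]) (Tr.leaf [1,1])))

/-- The witnesses of the rotations. -/
noncomputable def witT : Tr (Nat × Nat × Bool) := (Tr.node (Tr.node (Tr.leaf (0,0,false)) (Tr.leaf (1,0,false))) (Tr.node (Tr.leaf (0,2,false)) (Tr.leaf (1,1,false))))

/-- The subgroup rotations. -/
noncomputable def srotT : Tr (List Nat × Nat × List Nat) := (Tr.leaf ([],0,[]))

/-- The certificate. -/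
noncomputable def cert : Cert :=
  mkCert 2 4 8 1 4 4 8 255 26 8 16 23 255 127 4 2 15 3 6 4 1 ctree.get rotT.get srotT.get

/-- The relators. -/
def rels : List (List Nat) :=
  [[0,1,0,1]]

/-- The words of the subgroup. -/
def subs : List (List Nat) :=
  []

end Cfsg.Agent.Lib.CosetCert.D.OnM11.Lv2.Tab
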